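import Cfsg.Agent.R2.H8.Mon.Refine
import Cfsg.Agent.R2.H4.Mon.GeoInst

/-!
# Octads and the subspace of the standard trio (helper8)

* `mem_W8_iff` : `x ∈ W12` is in `W8 o` iff its functional vanishes on the words disjoint from `o`;
* `inf_le_W12` : `W8 o₁ ⊓ W8 o₂ ≤ W12` for distinct octads;
* `inf_eq_U4` : `W8 (ot i) ⊓ W8 (ot j) = U4` for the octads of the standard trio.
-/

set_option autoImplicit false
set_option linter.unusedSectionVars false

namespace Cfsg.Agent.R2.H8.Mon.Lat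

open Cfsg
open Cfsg.Agent.GolayTrio.Std
open Cfsg.Agent.H848.Trio Cfsg.Agent.H848.TrioU
open Cfsg.Agent.SporadicA.Co0Mono (signCo0)
open Cfsg.Agent.SporadicA.Co1Simple (allOne)
open Cfsg.Agent.CoOneType.SignFacts
open Cfsg.Agent.CoOneType.CoOneE (pr sup_zero wt_eq_zero sup_add wt_add sup_inj sup_wordPerm sup_mem_octads)
open Cfsg.Agent.MonsterU.Lam2 (L2 IsType cl cl_surjective bf bf_cl_eq_zero bf_comm bf_add_right neg_eq)
open Cfsg.Agent.MonsterU.CoFrame
open Cfsg.Agent.MonsterU.CoFrameAct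
open Cfsg.Agent.MonsterU.CoFrameL2
open Cfsg.Agent.MonsterU.CoFrameIrr (hwHom)
open Cfsg.Agent.H848.Oct (eps W16 W8 mem_W16 perp_W16 perp_W8)
open Cfsg.Agent.H848.Dual (mem_perp perp)
open Cfsg.Agent.R2.H4.Mon.Golay
open Cfsg.Agent.R2.H8.Mon.Cw
open Cfsg.Agent.R2.H8.Mon.Refine
open scoped Pointwise Matrix

/-! ### The pairing of `W12` and `W23` -/

/-- the form in terms of the pairing -/
theorem bf_pair {w v : leechLattice} (hw' : w ∈ V12) (hv : v ∈ V23) :
    bf (cl w) (cl v) = 0 ↔ pair w (hwHom ⟨v, hv⟩) = 0 := by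
  obtain ⟨u, hu, h4⟩ := Cfsg.Agent.MonsterU.AmalGen.exists_four hw'
  have h1 : pair w (hwHom ⟨v, hv⟩) = pair u (hwHom ⟨v, hv⟩) := pair_cong ((cong_iff_cl _ _).2 hu.symm) _
  rw [← hu, h1, bf_cl_eq_zero]
  choose u' hu' using h4
  have hv0 := hv
  choose v' hv' using hv0
  rw [pair_of_four (w := u') hu']
  have h2 : dotInt (u : GolayPt → ℤ) (v : GolayPt → ℤ) = 8 * ∑ i, u' i * v' i := by
    unfold dotInt
    rw [Finset.mul_sum]
    refine Finset.sum_congr rfl fun i _ => ?_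
    rw [hu' i, hv' i]; ring
  have h3 : ∀ i, ((hwHom ⟨v, hv⟩ : golayCode) : GolayPt → ZMod 2) i = ((v' i : ℤ) : ZMod 2) := by
    intro i
    show hw v i = _
    rw [hw_apply, hv' i, Int.mul_ediv_cancel_left _ (by norm_num)]
  have h4 : ∑ i, (u' i : ZMod 2) * ((hwHom ⟨v, hv⟩ : golayCode) : GolayPt → ZMod 2) i =
      ((∑ i, u' i * v' i : ℤ) : ZMod 2) := by
    rw [Int.cast_sum]
    refine Finset.sum_congr rfl fun i _ => ?_
    rw [h3, Int.cast_mul]
  rw [h2, h4, ZMod.intCast_zmod_eq_zero_iff_dvd]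
  push_cast
  omega

theorem ev_allOne {x : L2} (hx : x ∈ W12) : pairL x allOne = 0 := by
  obtain ⟨v, rfl⟩ := cl_surjective x
  rw [pairL_cl]
  exact pair_allOne (cl_mem_W12.1 hx)

/-- **The intersection of `W8 o` with `W12`.** -/
theorem mem_W8_iff {o : golayCode} (ho : wt o = 8) {x : L2} (hx : x ∈ W12) : x ∈ W8 o ↔ Po (sup o) (pairL x) := by
  constructor
  · intro h c hc
    obtain ⟨v, hv, rfl⟩ := Cfsg.Agent.H813.OctLat.exists_supp h
    rw [pairL_cl, pair_eq_zero_iff]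
    have h1 : ∑ i ∈ sup c, (v : GolayPt → ℤ) i = 0 := by
      refine Finset.sum_eq_zero fun i hi => hv i ?_
      exact Finset.disjoint_left.1 hc hi
    rw [h1]
    exact dvd_zero _
  · intro h
    rw [← perp_W16, mem_perp]
    intro u hu
    obtain ⟨v, rfl⟩ := cl_surjective u
    obtain ⟨w, rfl⟩ := cl_surjective x
    rw [mem_W16] at hu
    have hne : (sup o).Nonempty := by
      rw [← Finset.card_pos]; unfold wt at ho; omega
    have hv : v ∈ V23 := by
      refine Cfsg.Agent.R2.H4.Mon.Dod.mem_V23_of_fix ?_ hu hne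
      by_contra hn
      push Not at hn
      unfold wt at ho
      rw [Finset.eq_univ_iff_forall.2 hn] at ho
      exact absurd ho (by decide)
    rw [bf_pair (cl_mem_W12.1 hx) hv, ← pairL_cl]
    have h1 := Cfsg.Agent.R2.H4.Mon.KeyGrp.mulw_mem hv hu
    rw [mulw_comm] at h1
    rcases cst_of_mulw ho h1 with h2 | h2
    · exact h _ (Finset.disjoint_iff_inter_eq_empty.2 h2)
    · have h3 : pairL (cl w) (hwHom ⟨v, hv⟩ + allOne) = 0 := by
        apply h
        rw [sup_add_allOne, Finset.disjoint_left]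
        intro p hp hp'
        exact (Finset.mem_compl.1 hp) (h2 hp')
      rw [pairL_add_right hx, ev_allOne hx, add_zero] at h3
      exact h3

/-! ### Two octads -/

theorem mem_W16_of_pair {o : golayCode} {x : L2} (hx : x ∈ W12) (h : pairL x o = 0) : x ∈ W16 o := by
  rw [mem_W16]
  show pr (signCo0 o) • x = x
  rw [sign_smul hx, if_pos h, add_zero]

theorem bf_zero_of {o : golayCode} {x w : L2} (hx : x ∈ W8 o) (hw' : w ∈ W12) (h : pairL w o = 0) : bf x w = 0 := by
  rw [← perp_W16, mem_perp] at hx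
  exact hx w (mem_W16_of_pair hw' h)

/-- a duad separating two octads -/
theorem exists_duad {o₁ o₂ : golayCode} (h₁ : wt o₁ = 8) (h₂ : wt o₂ = 8) (hne : o₁ ≠ o₂) :
    ∃ w ∈ W12, pairL w o₁ = 0 ∧ pairL w o₂ = 1 := by
  obtain ⟨i, hi2, hi1⟩ : ∃ i, i ∈ sup o₂ ∧ i ∉ sup o₁ := by
    by_contra hn
    push Not at hn
    apply hne
    apply sup_inj
    exact (Finset.eq_of_subset_of_card_le hn (by unfold wt at h₁ h₂; omega)).symm
  obtain ⟨j, hj⟩ : ∃ j, j ∉ sup o₁ ∪ sup o₂ := by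
    by_contra hn
    push Not at hn
    have h1 := Finset.card_union_le (sup o₁) (sup o₂)
    rw [Finset.eq_univ_iff_forall.2 hn] at h1
    have h2 : (Finset.univ : Finset GolayPt).card = 24 := by decide
    unfold wt at h₁ h₂
    omega
  rw [Finset.mem_union, not_or] at hj
  refine ⟨cl (duad i j), cl_mem_W12.2 (duad_mem i j), ?_, ?_⟩
  · rw [pairL_cl, pair_duad, (notMem_sup _ _).1 hi1, (notMem_sup _ _).1 hj.1, add_zero]
  · rw [pairL_cl, pair_duad, (mem_sup _ _).1 hi2, (notMem_sup _ _).1 hj.2, add_zero]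

theorem inf_le_W12 {o₁ o₂ : golayCode} (h₁ : wt o₁ = 8) (h₂ : wt o₂ = 8) (hne : o₁ ≠ o₂) {x : L2}
    (hx₁ : x ∈ W8 o₁) (hx₂ : x ∈ W8 o₂) : x ∈ W12 := by
  apply Cfsg.Agent.MonsterU.AmalGen.mem_W12_of_bf
  intro w hw'
  rcases Cfsg.Agent.H848.TrioU.zero_or_one (pairL w o₁) with h | h
  · exact bf_zero_of hx₁ hw' h
  rcases Cfsg.Agent.H848.TrioU.zero_or_one (pairL w o₂) with h' | h'
  · exact bf_zero_of hx₂ hw' h'
  obtain ⟨u, hu, hu1, hu2⟩ := exists_duad h₁ h₂ hne
  have h3 : bf x (w + u) = 0 := bf_zero_of hx₂ (W12.add_mem hw' hu) (by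
    rw [pairL_add, h', hu2]; decide)
  rw [bf_add_right, bf_zero_of hx₁ hu hu1, add_zero] at h3
  exact h3

/-! ### The standard trio -/

/-- the octads of the standard trio -/
noncomputable def ot (j : Fin 3) : golayCode := Cfsg.Agent.CoOneType.CoOneE.wordOf (OO j)

theorem sup_ot (j : Fin 3) : sup (ot j) = OO j :=
  Cfsg.Agent.CoOneType.CoOneE.sup_wordOf (OO_octad j).1

theorem wt_ot (j : Fin 3) : wt (ot j) = 8 := by
  unfold wt
  rw [sup_ot]
  exact (OO_octad j).2

theorem ot_ne {i j : Fin 3} (h : i ≠ j) : ot i ≠ ot j := by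
  intro e
  apply h
  apply OO_injective
  rw [← sup_ot, ← sup_ot, e]

theorem aff : ∀ f : V → ZMod 2, (∀ (a : V) (e : ZMod 2), ∑ v : V, (a ⬝ᵥ v + e) * f v = 0) →
    ∃ (a : V) (e : ZMod 2), ∀ v : V, f v = a ⬝ᵥ v + e := by
  decide +kernel

/-- the words with trivial moments are affine on the octads -/
theorem aff_of_S {c : golayCode} (hc : S c = 0) (j : Fin 3) :
    ∃ (a : V) (e : ZMod 2), ∀ p, kk p = j → (c : GolayPt → ZMod 2) p = a ⬝ᵥ vv p + e := by
  obtain ⟨a, e, h⟩ := aff (fun v => (c : GolayPt → ZMod 2) (point j v)) (by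
    intro a e
    have h1 := dot_tet j a e c
    rw [hc, dotProduct_zero] at h1
    rw [← h1]
    simp only [tet_apply, ite_mul, zero_mul]
    rw [← Finset.sum_filter]
    symm
    refine Finset.sum_nbij' vv (point j) ?_ ?_ ?_ ?_ ?_
    · intro p _; exact Finset.mem_univ _
    · intro v _
      rw [Finset.mem_filter]
      exact ⟨Finset.mem_univ _, kk_point j v⟩
    · intro p hp
      rw [Finset.mem_filter] at hp
      rw [← hp.2, point_kk_vv]
    · intro v _; exact vv_point j v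
    · intro p hp
      rw [Finset.mem_filter] at hp
      rw [← hp.2, point_kk_vv])
  refine ⟨a, e, fun p hp => ?_⟩
  have h1 := h (vv p)
  rw [← hp, point_kk_vv] at h1
  exact h1

/-- decomposition of the words with trivial moments -/
theorem exists_decomp {c : golayCode} (hc : S c = 0) {i j : Fin 3} (hij : i ≠ j) :
    ∃ c₁ c₂ : golayCode, c = c₁ + c₂ ∧ Disjoint (sup c₁) (OO i) ∧ Disjoint (sup c₂) (OO j) := by
  obtain ⟨m, hm, hm', -⟩ := exists_third i j hij
  obtain ⟨a, e, h⟩ := aff_of_S hc j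
  set c₁ : golayCode := ⟨tet j a e + tet m a e, tet_add_mem j m a e e⟩ with hc₁
  have hv : ∀ p, (c₁ : GolayPt → ZMod 2) p = (if kk p = j then a ⬝ᵥ vv p + e else 0) +
      (if kk p = m then a ⬝ᵥ vv p + e else 0) := fun p => rfl
  refine ⟨c₁, c + c₁, ?_, ?_, ?_⟩
  · rw [add_comm c c₁, ← add_assoc, Cfsg.Agent.R2.H4.Mon.Golay.add_self, zero_add]
  · rw [Finset.disjoint_left]
    intro p hp hp'
    rw [mem_OO] at hp'
    rw [mem_sup, hv, hp', if_neg hij, if_neg (Ne.symm hm)] at hp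
    simp at hp
  · rw [Finset.disjoint_left]
    intro p hp hp'
    rw [mem_OO] at hp'
    have h1 : ((c + c₁ : golayCode) : GolayPt → ZMod 2) p = (c : GolayPt → ZMod 2) p + (c₁ : GolayPt → ZMod 2) p := rfl
    rw [mem_sup, h1, hv, h p hp', if_pos hp', if_neg (by rw [hp']; exact Ne.symm hm'), add_zero,
      CharTwo.add_self_eq_zero] at hp
    exact zero_ne_one hp

theorem po_of_U4 {x : L2} (hx : x ∈ U4) (i : Fin 3) : Po (OO i) (pairL x) := by
  intro c hc
  apply hx.2
  apply V_ext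
  intro a
  rw [dotProduct_zero, ← dot_tet i a 0]
  refine Finset.sum_eq_zero fun p _ => ?_
  rw [tet_apply]
  split_ifs with h
  · have h1 : p ∉ sup c := fun hp => Finset.disjoint_left.1 hc hp ((mem_OO i p).2 h)
    rw [(notMem_sup c p).1 h1, mul_zero]
  · rw [zero_mul]

/-- **The subspace of the standard trio.** -/
theorem inf_eq_U4 {i j : Fin 3} (hij : i ≠ j) {x : L2} : (x ∈ W8 (ot i) ∧ x ∈ W8 (ot j)) ↔ x ∈ U4 := by
  constructor
  · rintro ⟨hi, hj⟩
    have h12 := inf_le_W12 (wt_ot i) (wt_ot j) (ot_ne hij) hi hj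
    rw [mem_W8_iff (wt_ot i) h12, sup_ot] at hi
    rw [mem_W8_iff (wt_ot j) h12, sup_ot] at hj
    refine ⟨h12, fun c hc => ?_⟩
    obtain ⟨c₁, c₂, rfl, h1, h2⟩ := exists_decomp hc hij
    rw [pairL_add_right h12, hi _ h1, hj _ h2, add_zero]
  · intro hx
    refine ⟨(mem_W8_iff (wt_ot i) (U4_le hx)).2 ?_, (mem_W8_iff (wt_ot j) (U4_le hx)).2 ?_⟩
    · rw [sup_ot]; exact po_of_U4 hx i
    · rw [sup_ot]; exact po_of_U4 hx j

/-! ### Representatives of the classes of `W12` -/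

/-- the functional of a class of `W12` -/
theorem exists_ev {x : L2} (hx : x ∈ W12) :
    ∃ X : Finset GolayPt, (X.card = 0 ∨ X.card = 2 ∨ X.card = 4) ∧ ∀ c, pairL x c = ev X c := by
  obtain ⟨v, rfl⟩ := cl_surjective x
  obtain ⟨u, hu, h4⟩ := Cfsg.Agent.MonsterU.AmalGen.exists_four (cl_mem_W12.1 hx)
  choose w hw' using h4
  rw [← hu] at hx ⊢
  set Y : Finset GolayPt := Finset.univ.filter fun i => ((w i : ℤ) : ZMod 2) ≠ 0 with hY
  have h1 : ∀ c, pairL (cl u) c = ev Y c := by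
    intro c
    rw [pairL_cl, pair_of_four hw']
    unfold ev
    rw [hY, Finset.sum_filter]
    refine Finset.sum_congr rfl fun i _ => ?_
    rcases Cfsg.Agent.H848.TrioU.zero_or_one ((w i : ℤ) : ZMod 2) with h | h
    · rw [h]; simp
    · rw [h]; simp
  have h2 : Even Y.card := by
    have h3 := h1 allOne
    rw [ev_allOne hx, eq_comm, ev_eq_zero_iff] at h3
    have h4 : sup allOne = Finset.univ := by
      ext i
      rw [mem_sup]
      exact ⟨fun _ => Finset.mem_univ _, fun _ => rfl⟩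
    rwa [h4, Finset.univ_inter] at h3
  obtain ⟨X, hX, h3⟩ := exists_small Y h2
  exact ⟨X, hX, fun c => by rw [h1, h3]⟩

theorem eq_or_of_pairL {x y : L2} (hx : x ∈ W12) (hy : y ∈ W12) (h : ∀ c, pairL x c = pairL y c) :
    x = y ∨ x = y + f0 := by
  have h1 : x + y ∈ W1 := by
    rw [mem_W1_iff_pairL (W12.add_mem hx hy)]
    intro c
    rw [pairL_add, h c]
    exact CharTwo.add_self_eq_zero _
  rcases (mem_W1 _).1 h1 with h2 | h2
  · left; exact Cfsg.Agent.MonsterU.Lam2.eq_of_add_eq_zero h2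
  · right
    rw [← h2, add_comm x y, ← add_assoc, Cfsg.Agent.MonsterU.Lam2.add_self, zero_add]

/-- the classes over a duad -/
theorem type_two_of_duad {x : L2} (hx : x ∈ W12) {X : Finset GolayPt} (hX : X.card = 2)
    (h : ∀ c, pairL x c = ev X c) : IsType 2 x := by
  obtain ⟨i, j, hij, rfl⟩ := Finset.card_eq_two.1 hX
  have h1 : ∀ c, pairL x c = pairL (cl (duad i j)) c := by
    intro c
    rw [h c, pairL_cl, pair_duad]
    exact Finset.sum_pair hij
  have hpv : ∀ (s : ℤ) (hs : s = 1 ∨ s = -1), IsType 2 (cl (pv i j s hs)) := fun s hs =>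
    ⟨_, by rw [sqNorm_pv i j hij s hs]; norm_num, rfl⟩
  rcases eq_or_of_pairL hx (cl_mem_W12.2 (duad_mem i j)) h1 with h2 | h2
  · have h3 : cl (duad i j) = cl (pv i j (-1) (Or.inr rfl)) := by
      congr 1
      apply Subtype.ext
      funext k
      rw [duad_coe, pv_apply]
      split_ifs <;> simp_all
    rw [h2, h3]
    exact hpv _ _
  · have h3 : cl (duad i j) + f0 = cl (pv i j 1 (Or.inl rfl)) := by
      have h4 : f0 = cl (Cfsg.Agent.SporadicStructure.Co0Base.e8 j) := (cong_iff_cl _ _).1 (cong_e8 none j)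
      rw [h4, ← map_add]
      congr 1
      apply Subtype.ext
      funext k
      rw [coe_add', duad_coe, coe_e8, pv_apply]
      split_ifs <;> simp_all
    rw [h2, h3]
    exact hpv _ _

/-- **The classes of type 4 outside `W1` are sextets.** -/
theorem exists_tetrad {x : L2} (hx : x ∈ W12) (h1 : x ∉ W1) (h2 : ¬ IsType 2 x) :
    ∃ X : Finset GolayPt, X.card = 4 ∧ ∀ c, pairL x c = ev X c := by
  obtain ⟨X, hX, h⟩ := exists_ev hx
  rcases hX with hX | hX | hX
  · exfalso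
    apply h1
    rw [mem_W1_iff_pairL hx]
    intro c
    rw [h c, Finset.card_eq_zero.1 hX]
    rfl
  · exact absurd (type_two_of_duad hx hX h) h2
  · exact ⟨X, hX, h⟩

end Cfsg.Agent.R2.H8.Mon.Lat
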