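import Cfsg.Agent.R2.H8.Mon.Refine

/-!
# Perfect matchings of the tetrads of a sextet (helper8)

`Good φ ψ` : a second sextet related to `φ`.  It gives a perfect matching of the six tetrads of `φ`; two such matchings
have a common pair.  `exists_common` : a family of such functionals closed under products has a common pair.
-/

set_option autoImplicit false
set_option linter.unusedSectionVars false

namespace Cfsg.Agent.R2.H8.Mon.Match

open Cfsg
open Cfsg.Agent.SporadicA.Xi (IsSextet fib mem_fib tw tw_add_mem)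
open Cfsg.Agent.CoOneType.SignFacts
open Cfsg.Agent.R2.H8.Mon.Cw
open Cfsg.Agent.R2.H8.Mon.Refine

/-! ### Matchings of six points -/

/-- digits in base 8 -/
def cd (n i : ℕ) : ℕ := (n / 8 ^ i) % 8

/-- the codes of the perfect matchings of six points -/
def C15 : List ℕ := [5349, 8989, 14421, 34028, 41259, 47146, 66396, 69987, 80193, 100948, 104994, 109313, 151635,
  152090, 152769]

def all6 (k : ℕ → Bool) : Bool := k 0 && k 1 && k 2 && k 3 && k 4 && k 5

def any6 (k : ℕ → Bool) : Bool := k 0 || k 1 || k 2 || k 3 || k 4 || k 5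

def chk (n : ℕ) : Bool := all6 fun i => Nat.beq (cd n (cd n i)) i

def memb (n : ℕ) (l : List ℕ) : Bool := l.any fun a => Nat.beq n a

def aux1 : Bool := all6 fun a => Nat.beq a 0 || all6 fun b => Nat.beq b 1 || all6 fun c => Nat.beq c 2 ||
  all6 fun d => Nat.beq d 3 || all6 fun e => Nat.beq e 4 || all6 fun f => Nat.beq f 5 ||
  (!chk (a + 8 * b + 64 * c + 512 * d + 4096 * e + 32768 * f) ||
    memb (a + 8 * b + 64 * c + 512 * d + 4096 * e + 32768 * f) C15)

def hel : Bool := C15.all fun a => C15.all fun b => C15.all fun c => Nat.beq a b || all6 fun i =>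
  (!Nat.beq (cd a i) (cd b i)) || Nat.beq (cd c i) (cd a i) || !(any6 fun j => Nat.beq (cd c j) (cd a j)) ||
    !(any6 fun j => Nat.beq (cd c j) (cd b j))

def no3 : Bool := C15.all fun a => C15.all fun b => C15.all fun c =>
  !(all6 fun i => Nat.beq (cd c (cd a i)) (cd b i))

theorem hel_eq : hel = true := by decide +kernel

theorem no3_eq : no3 = true := by decide +kernel

theorem aux1_eq : aux1 = true := by decide +kernel

theorem all6_iff {k : ℕ → Bool} : all6 k = true ↔ ∀ i : Fin 6, k i = true := by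
  constructor
  · intro h i
    simp only [all6, Bool.and_eq_true] at h
    obtain ⟨⟨⟨⟨⟨h0, h1⟩, h2⟩, h3⟩, h4⟩, h5⟩ := h
    fin_cases i
    · exact h0
    · exact h1
    · exact h2
    · exact h3
    · exact h4
    · exact h5
  · intro h
    have h0 := h 0
    have h1 := h 1
    have h2 := h 2
    have h3 := h 3
    have h4 := h 4
    have h5 := h 5
    simp only [all6, Bool.and_eq_true]
    exact ⟨⟨⟨⟨⟨h0, h1⟩, h2⟩, h3⟩, h4⟩, h5⟩

theorem any6_of {k : ℕ → Bool} (i : Fin 6) (h : k i = true) : any6 k = true := by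
  simp only [any6, Bool.or_eq_true]
  fin_cases i
  · exact Or.inl (Or.inl (Or.inl (Or.inl (Or.inl h))))
  · exact Or.inl (Or.inl (Or.inl (Or.inl (Or.inr h))))
  · exact Or.inl (Or.inl (Or.inl (Or.inr h)))
  · exact Or.inl (Or.inl (Or.inr h))
  · exact Or.inl (Or.inr h)
  · exact Or.inr h

theorem beq_of {a b : ℕ} (h : a = b) : Nat.beq a b = true := by
  subst h
  exact Nat.beq_refl a

theorem memb_iff {n : ℕ} {l : List ℕ} (h : memb n l = true) : n ∈ l := by
  unfold memb at h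
  rw [List.any_eq_true] at h
  obtain ⟨a, ha, h⟩ := h
  rw [Nat.eq_of_beq_eq_true h]
  exact ha

/-- the code -/
def code (m : Fin 6 → Fin 6) : ℕ :=
  (m 0 : ℕ) + 8 * (m 1 : ℕ) + 64 * (m 2 : ℕ) + 512 * (m 3 : ℕ) + 4096 * (m 4 : ℕ) + 32768 * (m 5 : ℕ)

theorem cd_code (m : Fin 6 → Fin 6) (i : Fin 6) : cd (code m) i = m i := by
  have h0 := (m 0).2
  have h1 := (m 1).2
  have h2 := (m 2).2
  have h3 := (m 3).2
  have h4 := (m 4).2
  have h5 := (m 5).2
  unfold cd code
  fin_cases i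
  · show (_ : ℕ) / 8 ^ 0 % 8 = (m 0 : ℕ)
    norm_num
    omega
  · show (_ : ℕ) / 8 ^ 1 % 8 = (m 1 : ℕ)
    norm_num
    omega
  · show (_ : ℕ) / 8 ^ 2 % 8 = (m 2 : ℕ)
    norm_num
    omega
  · show (_ : ℕ) / 8 ^ 3 % 8 = (m 3 : ℕ)
    norm_num
    omega
  · show (_ : ℕ) / 8 ^ 4 % 8 = (m 4 : ℕ)
    norm_num
    omega
  · show (_ : ℕ) / 8 ^ 5 % 8 = (m 5 : ℕ)
    norm_num
    omega

/-- a perfect matching -/
def PM (m : Fin 6 → Fin 6) : Prop := (∀ i, m i ≠ i) ∧ ∀ i, m (m i) = i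

theorem or_resolve {a b : Bool} (h : (a || b) = true) (ha : a ≠ true) : b = true := by
  cases a
  · simpa using h
  · exact absurd rfl ha

theorem beq_ne {m : Fin 6 → Fin 6} {i : Fin 6} (h : m i ≠ i) : Nat.beq (m i : ℕ) (i : ℕ) ≠ true :=
  fun h1 => h (Fin.ext (Nat.eq_of_beq_eq_true h1))

theorem code_mem {m : Fin 6 → Fin 6} (h : PM m) : code m ∈ C15 := by
  have k := aux1_eq
  unfold aux1 at k
  have k := or_resolve (all6_iff.1 k (m 0)) (beq_ne (h.1 0))
  have k := or_resolve (all6_iff.1 k (m 1)) (beq_ne (h.1 1))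
  have k := or_resolve (all6_iff.1 k (m 2)) (beq_ne (h.1 2))
  have k := or_resolve (all6_iff.1 k (m 3)) (beq_ne (h.1 3))
  have k := or_resolve (all6_iff.1 k (m 4)) (beq_ne (h.1 4))
  have k := or_resolve (all6_iff.1 k (m 5)) (beq_ne (h.1 5))
  have hc : chk (code m) = true := by
    unfold chk
    rw [all6_iff]
    intro i
    apply beq_of
    rw [cd_code, cd_code, h.2]
  refine memb_iff (or_resolve k ?_)
  change (!chk (code m)) ≠ true
  rw [hc]
  decide

theorem eq_of_code {m m' : Fin 6 → Fin 6} (h : code m = code m') : m = m' := by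
  funext i
  apply Fin.ext
  rw [← cd_code, ← cd_code, h]

theorem helly {m m' m'' : Fin 6 → Fin 6} (h : PM m) (h' : PM m') (h'' : PM m'') (hne : m ≠ m') {i : Fin 6}
    (hi : m i = m' i) (h1 : ∃ j, m'' j = m j) (h2 : ∃ j, m'' j = m' j) : m'' i = m i := by
  have k := hel_eq
  unfold hel at k
  rw [List.all_eq_true] at k
  have k := k _ (code_mem h)
  rw [List.all_eq_true] at k
  have k := k _ (code_mem h')
  rw [List.all_eq_true] at k
  have k := k _ (code_mem h'')
  have k := all6_iff.1 (or_resolve k (fun h => hne (eq_of_code (Nat.eq_of_beq_eq_true h)))) i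
  rw [Bool.or_eq_true, Bool.or_eq_true, Bool.or_eq_true] at k
  rcases k with ((k | k) | k) | k
  · exfalso
    rw [cd_code, cd_code, hi, Nat.beq_refl] at k
    exact absurd k (by decide)
  · have := Nat.eq_of_beq_eq_true k
    rw [cd_code, cd_code] at this
    exact Fin.ext this
  · exfalso
    obtain ⟨j, hj⟩ := h1
    have e : (any6 fun j => Nat.beq (cd (code m'') j) (cd (code m) j)) = true :=
      any6_of j (beq_of (by rw [cd_code, cd_code, hj]))
    rw [e] at k
    exact absurd k (by decide)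
  · exfalso
    obtain ⟨j, hj⟩ := h2
    have e : (any6 fun j => Nat.beq (cd (code m'') j) (cd (code m') j)) = true :=
      any6_of j (beq_of (by rw [cd_code, cd_code, hj]))
    rw [e] at k
    exact absurd k (by decide)

theorem no_three {m m' m'' : Fin 6 → Fin 6} (h : PM m) (h' : PM m') (h'' : PM m'') : ¬ ∀ i, m'' (m i) = m' i := by
  intro hall
  have k := no3_eq
  unfold no3 at k
  rw [List.all_eq_true] at k
  have k := k _ (code_mem h)
  rw [List.all_eq_true] at k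
  have k := k _ (code_mem h')
  rw [List.all_eq_true] at k
  have k := k _ (code_mem h'')
  have e : (all6 fun i => Nat.beq (cd (code m'') (cd (code m) i)) (cd (code m') i)) = true :=
    all6_iff.2 (fun i => beq_of (by rw [cd_code, cd_code, cd_code, hall]))
  rw [e] at k
  exact absurd k (by decide)

/-! ### The matching of a sextet -/

variable {φ ψ ψ' : golayCode → ZMod 2} {T : GolayPt → Fin 6}

/-- a second sextet related to `φ` -/
structure Good (φ ψ : golayCode → ZMod 2) : Prop where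
  sx : ∃ T', Sx ψ T'
  rel : Rel φ ψ
  ne : ∃ c, φ c ≠ ψ c

theorem ne_ev {T' : GolayPt → Fin 6} (h' : Sx ψ T') (hne : ∃ c, φ c ≠ ψ c) (k : Fin 6) :
    ∃ c, φ c ≠ ev (fib T' k) c := by
  obtain ⟨c, hc⟩ := hne
  exact ⟨c, by rw [← h'.ev k c]; exact hc⟩

theorem rel_ev (hT : Sx φ T) {T' : GolayPt → Fin 6} (h' : Sx ψ T') (hR : Rel φ ψ) (k : Fin 6) (i j : Fin 6) :
    ev (fib T' k) (tww hT i j) = 0 := by
  rw [← h'.ev k]; exact hR T hT i j

/-- a tetrad of `ψ` through a point -/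
theorem exists_partner (hT : Sx φ T) (hG : Good φ ψ) (i : Fin 6) : ∃ j, j ≠ i ∧ Po (fib T i ∪ fib T j) ψ := by
  obtain ⟨T', h'⟩ := hG.sx
  obtain ⟨p, hp⟩ := hT.nonempty i
  obtain ⟨j, hj, -, -, hsub⟩ := exists_two hT (h'.card (T' p)) (fun i j _ => rel_ev hT h' hG.rel _ i j)
    (ne_ev h' hG.ne _) (p := p) (mem_fib.2 rfl)
  have hTp : T p = i := mem_fib.1 hp
  rw [hTp] at hj hsub
  refine ⟨j, hj, fun c hc => ?_⟩
  rw [h'.ev (T' p) c]
  exact po_of_subset hsub c hc

/-- a tetrad of `ψ` meeting an octad refined by `ψ` -/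
theorem subset_of_po (hT : Sx φ T) {T' : GolayPt → Fin 6} (h' : Sx ψ T') {i j : Fin 6} (hij : i ≠ j)
    (hP : Po (fib T i ∪ fib T j) ψ) {p : GolayPt} (hp : p ∈ fib T i ∪ fib T j) :
    fib T' (T' p) ⊆ fib T i ∪ fib T j := by
  have h1 : Po (sup (tww hT i j)) (ev (fib T' (T' p))) := by
    rw [sup_tww hT hij]
    intro c hc
    rw [← h'.ev (T' p) c]; exact hP c hc
  rcases refine (wt_tww hT hij) (h'.card _) h1 with h2 | h2
  · rwa [sup_tww hT hij] at h2
  · rw [sup_tww hT hij] at h2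
    exact absurd hp (Finset.disjoint_left.1 h2 (mem_fib.2 rfl))

theorem partner_unique (hT : Sx φ T) (hG : Good φ ψ) {i j k : Fin 6} (hij : i ≠ j) (hik : i ≠ k)
    (hj : Po (fib T i ∪ fib T j) ψ) (hk : Po (fib T i ∪ fib T k) ψ) : j = k := by
  by_contra hjk
  obtain ⟨T', h'⟩ := hG.sx
  obtain ⟨p, hp⟩ := hT.nonempty i
  have h1 := subset_of_po hT h' hij hj (Finset.mem_union_left _ hp)
  have h2 := subset_of_po hT h' hik hk (Finset.mem_union_left _ hp)
  have h3 : fib T' (T' p) ⊆ fib T i := by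
    intro q hq
    have k1 := h1 hq
    have k2 := h2 hq
    rw [Finset.mem_union] at k1 k2
    rcases k1 with k1 | k1
    · exact k1
    · rcases k2 with k2 | k2
      · exact k2
      · exact absurd k2 (Finset.disjoint_left.1 (fib_disjoint hjk) k1)
  have h4 : fib T' (T' p) = fib T i := Finset.eq_of_subset_of_card_le h3 (by rw [hT.card, h'.card])
  obtain ⟨c, hc⟩ := hG.ne
  apply hc
  rw [hT.ev i c, h'.ev (T' p) c, h4]

/-- **The product of two related sextets.** -/
theorem po_add (hT : Sx φ T) (hG : Good φ ψ) (hG' : Good φ ψ') (hR : Rel ψ ψ') (hne : ∃ c, ψ c ≠ ψ' c)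
    {i j k : Fin 6} (hij : i ≠ j) (hik : i ≠ k) (hjk : j ≠ k) (hj : Po (fib T i ∪ fib T j) ψ)
    (hk : Po (fib T i ∪ fib T k) ψ') : Po (fib T j ∪ fib T k) (fun c => ψ c + ψ' c) := by
  obtain ⟨T', h'⟩ := hG.sx
  obtain ⟨T'', h''⟩ := hG'.sx
  obtain ⟨p, hp⟩ := hT.nonempty i
  have hTp : T p = i := mem_fib.1 hp
  have s1 := subset_of_po hT h' hij hj (Finset.mem_union_left _ hp)
  have s2 := subset_of_po hT h'' hik hk (Finset.mem_union_left _ hp)
  obtain ⟨-, -, c1, -, -⟩ := exists_two hT (h'.card (T' p)) (fun i j _ => rel_ev hT h' hG.rel _ i j)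
    (ne_ev h' hG.ne _) (p := p) (mem_fib.2 rfl)
  obtain ⟨-, -, c2, -, -⟩ := exists_two hT (h''.card (T'' p)) (fun i j _ => rel_ev hT h'' hG'.rel _ i j)
    (ne_ev h'' hG'.ne _) (p := p) (mem_fib.2 rfl)
  obtain ⟨-, -, c3, -, -⟩ := exists_two h' (h''.card (T'' p)) (fun i j _ => rel_ev h' h'' hR _ i j)
    (ne_ev h'' hne _) (p := p) (mem_fib.2 rfl)
  rw [hTp] at c1 c2
  set Y := fib T' (T' p) with hY
  set Y' := fib T'' (T'' p) with hY'
  have hsub : Y' ∩ Y ⊆ fib T i := by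
    intro q hq
    rw [Finset.mem_inter] at hq
    have k1 := s1 hq.2
    have k2 := s2 hq.1
    rw [Finset.mem_union] at k1 k2
    rcases k1 with k1 | k1
    · exact k1
    · rcases k2 with k2 | k2
      · exact k2
      · exact absurd k2 (Finset.disjoint_left.1 (fib_disjoint hjk) k1)
  have e1 : Y' ∩ Y = Y ∩ fib T i := by
    apply Finset.eq_of_subset_of_card_le
    · intro q hq
      exact Finset.mem_inter.2 ⟨(Finset.mem_inter.1 hq).2, hsub hq⟩
    · omega
  have e2 : Y' ∩ Y = Y' ∩ fib T i := by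
    apply Finset.eq_of_subset_of_card_le
    · intro q hq
      exact Finset.mem_inter.2 ⟨(Finset.mem_inter.1 hq).1, hsub hq⟩
    · omega
  have hsd : symmDiff Y Y' ⊆ fib T j ∪ fib T k := by
    intro q hq
    rw [Finset.mem_symmDiff] at hq
    rw [Finset.mem_union]
    rcases hq with ⟨q1, q2⟩ | ⟨q1, q2⟩
    · have k1 := s1 q1
      rw [Finset.mem_union] at k1
      rcases k1 with k1 | k1
      · exfalso
        have : q ∈ Y' ∩ Y := by rw [e1]; exact Finset.mem_inter.2 ⟨q1, k1⟩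
        exact q2 (Finset.mem_inter.1 this).1
      · exact Or.inl k1
    · have k1 := s2 q1
      rw [Finset.mem_union] at k1
      rcases k1 with k1 | k1
      · exfalso
        have : q ∈ Y' ∩ Y := by rw [e2]; exact Finset.mem_inter.2 ⟨q1, k1⟩
        exact q2 (Finset.mem_inter.1 this).2
      · exact Or.inr k1
  intro c hc
  show ψ c + ψ' c = 0
  rw [h'.ev (T' p) c, h''.ev (T'' p) c, ← ev_symmDiff]
  exact po_of_subset hsd c hc

/-- the matching -/
noncomputable def mt (hT : Sx φ T) (hG : Good φ ψ) (i : Fin 6) : Fin 6 := (exists_partner hT hG i).choose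

theorem mt_ne (hT : Sx φ T) (hG : Good φ ψ) (i : Fin 6) : mt hT hG i ≠ i := (exists_partner hT hG i).choose_spec.1

theorem po_mt (hT : Sx φ T) (hG : Good φ ψ) (i : Fin 6) : Po (fib T i ∪ fib T (mt hT hG i)) ψ :=
  (exists_partner hT hG i).choose_spec.2

theorem mt_eq (hT : Sx φ T) (hG : Good φ ψ) {i j : Fin 6} (hij : i ≠ j) (h : Po (fib T i ∪ fib T j) ψ) :
    mt hT hG i = j :=
  partner_unique hT hG (Ne.symm (mt_ne hT hG i)) hij (po_mt hT hG i) h

theorem mt_mem (hT : Sx φ T) (hG : Good φ ψ) : PM (mt hT hG) := by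
  refine ⟨mt_ne hT hG, fun i => ?_⟩
  apply mt_eq hT hG (mt_ne hT hG i)
  rw [Finset.union_comm]
  exact po_mt hT hG i

/-- **Two matchings have a common pair.** -/
theorem exists_agree (hT : Sx φ T) (hG : Good φ ψ) (hG' : Good φ ψ') (hR : Rel ψ ψ') (hne : ∃ c, ψ c ≠ ψ' c)
    (hG'' : Good φ (fun c => ψ c + ψ' c)) : ∃ i, mt hT hG i = mt hT hG' i := by
  by_contra hn
  push Not at hn
  refine no_three (mt_mem hT hG) (mt_mem hT hG') (mt_mem hT hG'') fun i => ?_
  exact mt_eq hT hG'' (hn i) (po_add hT hG hG' hR hne (Ne.symm (mt_ne hT hG i)) (Ne.symm (mt_ne hT hG' i)) (hn i)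
    (po_mt hT hG i) (po_mt hT hG' i))

/-- **A common pair.** -/
theorem exists_common (hT : Sx φ T) (𝓕 : Set (golayCode → ZMod 2)) (hgood : ∀ ψ ∈ 𝓕, Good φ ψ)
    (hagree : ∀ ψ (h : ψ ∈ 𝓕) ψ' (h' : ψ' ∈ 𝓕), ∃ i, mt hT (hgood ψ h) i = mt hT (hgood ψ' h') i) :
    ∃ i j : Fin 6, i ≠ j ∧ ∀ ψ ∈ 𝓕, Po (fib T i ∪ fib T j) ψ := by
  rcases 𝓕.eq_empty_or_nonempty with h0 | ⟨ψ₀, h₀⟩
  · exact ⟨0, 1, by decide, fun ψ h => by rw [h0] at h; exact absurd h (Set.notMem_empty _)⟩
  by_cases hall : ∀ ψ (h : ψ ∈ 𝓕), mt hT (hgood ψ h) = mt hT (hgood ψ₀ h₀)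
  · refine ⟨0, mt hT (hgood ψ₀ h₀) 0, Ne.symm (mt_ne _ _ _), fun ψ h => ?_⟩
    rw [← hall ψ h]
    exact po_mt hT (hgood ψ h) 0
  · push Not at hall
    obtain ⟨ψ₁, h₁, hne⟩ := hall
    obtain ⟨i, hi⟩ := hagree ψ₁ h₁ ψ₀ h₀
    refine ⟨i, mt hT (hgood ψ₁ h₁) i, Ne.symm (mt_ne _ _ _), fun ψ h => ?_⟩
    rw [← helly (mt_mem hT (hgood ψ₁ h₁)) (mt_mem hT (hgood ψ₀ h₀)) (mt_mem hT (hgood ψ h)) hne hi
      (hagree ψ h ψ₁ h₁) (hagree ψ h ψ₀ h₀)]
    exact po_mt hT (hgood ψ h) i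

end Cfsg.Agent.R2.H8.Mon.Match
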